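import Mathlib
import Cfsg.Agent.Lib.Helper37.U27.Defs

/-!
# Project U27 (S5999): package [NORB]

Conjugation by `y` is a permutation of the 27 elements of `R` whose `r`-th power is trivial; its
fixed points form the subgroup `C_R(y)` of order 3, 9 or 27, and `27 - |C_R(y)|` is divisible by
`r ≥ 5`.
-/

set_option autoImplicit false

namespace Cfsg.Agent.Lib.Helper63.U27

open Cfsg.Agent.Lib.Helper37.U27

universe u

theorem norb_arith (r : ℕ) (hr : r.Prime) (hr5 : 5 ≤ r) : ¬ r ∣ 24 ∧ ¬ r ∣ 18 := by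
  constructor
  · intro h
    have h1 : (24 : ℕ) = 2 ^ 3 * 3 := by norm_num
    rw [h1] at h
    rcases (Nat.Prime.dvd_mul hr).mp h with h2 | h2
    · have := Nat.le_of_dvd (by norm_num) (hr.dvd_of_dvd_pow h2)
      omega
    · have := Nat.le_of_dvd (by norm_num) h2
      omega
  · intro h
    have h1 : (18 : ℕ) = 2 * 3 ^ 2 := by norm_num
    rw [h1] at h
    rcases (Nat.Prime.dvd_mul hr).mp h with h2 | h2
    · have := Nat.le_of_dvd (by norm_num) h2
      omega
    · have := Nat.le_of_dvd (by norm_num) (hr.dvd_of_dvd_pow h2)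
      omega

theorem pkgNOrb : PkgNOrb.{u} := by
  intro H _ R y s r hR hy hsR hs1 hys hr hr5 hyr
  classical
  haveI : Fact r.Prime := ⟨hr⟩
  haveI : Finite R := Nat.finite_of_card_ne_zero (by rw [hR]; norm_num)
  haveI : Fintype R := Fintype.ofFinite R
  have hconj : ∀ a : R, y * (a : H) * y⁻¹ ∈ R :=
    fun a => (Subgroup.mem_normalizer_iff.mp hy a).mp a.2
  let f : Function.End R := fun a => ⟨y * a * y⁻¹, hconj a⟩
  have hfpow : ∀ (k : ℕ) (a : R), (((f ^ k) a : R) : H) = y ^ k * a * (y ^ k)⁻¹ := by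
    intro k
    induction k with
    | zero =>
      intro a
      rw [pow_zero, pow_zero]
      change (a : H) = 1 * a * 1⁻¹
      group
    | succ k ih =>
      intro a
      have h1 : (f ^ (k + 1)) a = f ((f ^ k) a) := by
        rw [pow_succ']; rfl
      rw [h1]
      change y * (((f ^ k) a : R) : H) * y⁻¹ = _
      rw [ih, pow_succ']
      group
  have hf : f ^ r ^ 1 = 1 := by
    rw [pow_one]
    funext a
    apply Subtype.ext
    rw [hfpow]
    change y ^ r * (a : H) * (y ^ r)⁻¹ = (a : H)
    rw [hyr a a.2]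
    group
  have hmod := Equiv.Perm.card_fixedPoints_modEq (f := f) (p := r) (n := 1) hf
  set C : Subgroup H := R ⊓ Subgroup.centralizer {y} with hC
  have hmemC : ∀ a : H, a ∈ C ↔ a ∈ R ∧ y * a = a * y := by
    intro a
    rw [hC, Subgroup.mem_inf, Subgroup.mem_centralizer_iff]
    constructor
    · rintro ⟨h1, h2⟩
      exact ⟨h1, h2 y rfl⟩
    · rintro ⟨h1, h2⟩
      refine ⟨h1, ?_⟩
      intro h hh
      rw [Set.mem_singleton_iff] at hh
      rw [hh]; exact h2
  have hfix : ∀ a : R, a ∈ Function.fixedPoints f ↔ y * (a : H) = a * y := by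
    intro a
    rw [Function.mem_fixedPoints, Function.IsFixedPt]
    constructor
    · intro h
      have h1 : y * (a : H) * y⁻¹ = a := congrArg Subtype.val h
      calc y * (a : H) = (y * a * y⁻¹) * y := by group
        _ = a * y := by rw [h1]
    · intro h
      apply Subtype.ext
      change y * (a : H) * y⁻¹ = a
      rw [h]; group
  have hcard : Fintype.card (Function.fixedPoints f) = Nat.card C := by
    rw [← Nat.card_eq_fintype_card]
    apply Nat.card_congr
    refine
      { toFun := fun a => ⟨(a.1 : H), (hmemC _).mpr ⟨a.1.2, (hfix a.1).mp a.2⟩⟩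
        invFun := fun c => ⟨⟨c.1, ((hmemC _).mp c.2).1⟩, (hfix _).mpr ((hmemC _).mp c.2).2⟩
        left_inv := fun a => rfl
        right_inv := fun c => rfl }
  rw [hcard, ← Nat.card_eq_fintype_card, hR] at hmod
  have hCR : C ≤ R := inf_le_left
  haveI : Finite C := Finite.of_injective (Subgroup.inclusion hCR) (Subgroup.inclusion_injective hCR)
  have hdvd : Nat.card C ∣ 27 := by
    rw [← hR]; exact Subgroup.card_dvd_of_le hCR
  have hsC : s ∈ C := (hmemC s).mpr ⟨hsR, hys⟩
  have hgt : 1 < Nat.card C := by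
    rw [Subgroup.one_lt_card_iff_ne_bot]
    intro h
    rw [h, Subgroup.mem_bot] at hsC
    exact hs1 hsC
  have h27 : (27 : ℕ) = 3 ^ 3 := by norm_num
  rw [h27] at hdvd
  obtain ⟨k, hk, hck⟩ := (Nat.dvd_prime_pow Nat.prime_three).mp hdvd
  obtain ⟨ha, hb⟩ := norb_arith r hr hr5
  have hc27 : Nat.card C = 27 := by
    interval_cases k
    · rw [hck] at hgt; norm_num at hgt
    · exfalso
      rw [hck] at hmod
      have := (Nat.modEq_iff_dvd' (by norm_num : 3 ^ 1 ≤ 27)).mp hmod.symm
      exact ha (by simpa using this)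
    · exfalso
      rw [hck] at hmod
      have := (Nat.modEq_iff_dvd' (by norm_num : 3 ^ 2 ≤ 27)).mp hmod.symm
      exact hb (by simpa using this)
    · rw [hck]; norm_num
  have hCeq : C = R := Subgroup.eq_of_le_of_card_ge hCR (by rw [hc27, hR])
  intro a ha'
  rw [← hCeq] at ha'
  exact ((hmemC a).mp ha').2

end Cfsg.Agent.Lib.Helper63.U27
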