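import Mathlib
import Cfsg.Agent.Lib.Helper37.U27.Defs

/-!
# Project U27 (S5999): package [TRANSPORT]

Conjugating `R` by a unitary matrix `g` does not change the statement: `g` normalizes
`Gp = GU ⊓ SL`, conjugation maps `N(R)` onto `N(g⁻¹ R g)` and preserves scalar matrices.
-/

set_option autoImplicit false
open scoped MatrixGroups Matrix

namespace Cfsg.Agent.Lib.Helper63.U27

open Cfsg.Agent.Lib.Helper37.U27

universe u

section
variable {F : Type u} [Field F]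

/-- conjugates of scalar matrices -/
theorem tr_conj_scalar (g x : GL (Fin 3) F) (z : F)
    (h : (x : Matrix (Fin 3) (Fin 3) F) = z • (1 : Matrix (Fin 3) (Fin 3) F)) :
    ((g⁻¹ * x * g : GL (Fin 3) F) : Matrix (Fin 3) (Fin 3) F)
      = z • (1 : Matrix (Fin 3) (Fin 3) F) := by
  have h1 : g⁻¹ * x * g = x := by
    have hc : x * g = g * x := by
      apply Units.ext
      rw [Units.val_mul, Units.val_mul, h, Matrix.smul_mul, Matrix.mul_smul, Matrix.one_mul,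
        Matrix.mul_one]
    rw [mul_assoc, hc, ← mul_assoc, inv_mul_cancel, one_mul]
  rw [h1, h]

/-- `Gp` is normalized by unitary matrices -/
theorem tr_gp_conj (q : ℕ) (g y : GL (Fin 3) F) (hg : g ∈ Cfsg.GU 3 F q) (hy : y ∈ Gp F q) :
    g⁻¹ * y * g ∈ Gp F q := by
  refine ⟨?_, ?_⟩
  · exact Subgroup.mul_mem _ (Subgroup.mul_mem _ (Subgroup.inv_mem _ hg) hy.1) hg
  · have h1 : y ∈ (Matrix.GeneralLinearGroup.det : GL (Fin 3) F →* Fˣ).ker := hy.2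
    change g⁻¹ * y * g ∈ (Matrix.GeneralLinearGroup.det : GL (Fin 3) F →* Fˣ).ker
    rw [MonoidHom.mem_ker] at h1 ⊢
    rw [map_mul, map_mul, h1, mul_one, ← map_mul, inv_mul_cancel, map_one]

/-- normalizers correspond -/
theorem tr_norm (R R' : Subgroup (GL (Fin 3) F)) (g : GL (Fin 3) F)
    (hRR' : ∀ y, y ∈ R ↔ g⁻¹ * y * g ∈ R') (n : GL (Fin 3) F)
    (hn : n ∈ Cfsg.Geo.subgroupNormalizer R) :
    g⁻¹ * n * g ∈ Cfsg.Geo.subgroupNormalizer R' := by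
  have hn' : n ∈ Subgroup.normalizer (R : Set (GL (Fin 3) F)) := hn
  change g⁻¹ * n * g ∈ Subgroup.normalizer (R' : Set (GL (Fin 3) F))
  rw [Subgroup.mem_normalizer_iff] at hn' ⊢
  intro h'
  have e1 : h' = g⁻¹ * (g * h' * g⁻¹) * g := by group
  have e2 : g⁻¹ * n * g * h' * (g⁻¹ * n * g)⁻¹ = g⁻¹ * (n * (g * h' * g⁻¹) * n⁻¹) * g := by group
  rw [e2, ← hRR', ← hn' (g * h' * g⁻¹), hRR', ← e1]

/-- one direction of the transport -/
theorem tr_dir (q : ℕ) (R R' : Subgroup (GL (Fin 3) F)) (g : GL (Fin 3) F) (r : ℕ)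
    (hg : g ∈ Cfsg.GU 3 F q) (hRR' : ∀ y, y ∈ R ↔ g⁻¹ * y * g ∈ R')
    (h : AllConj (Gp F q) (Cfsg.Geo.subgroupNormalizer R) r) :
    AllConj (Gp F q) (Cfsg.Geo.subgroupNormalizer R') r := by
  intro x' hx' hsc hns
  have hginv : g⁻¹ ∈ Cfsg.GU 3 F q := Subgroup.inv_mem _ hg
  -- x := g x' g⁻¹
  have hx : g * x' * g⁻¹ ∈ Gp F q := by
    have := tr_gp_conj q g⁻¹ x' hginv hx'
    rwa [inv_inv] at this
  have hsc' : ∃ z : F, (((g * x' * g⁻¹) ^ r : GL (Fin 3) F) : Matrix (Fin 3) (Fin 3) F) =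
      z • (1 : Matrix (Fin 3) (Fin 3) F) := by
    obtain ⟨z, hz⟩ := hsc
    refine ⟨z, ?_⟩
    have e : (g * x' * g⁻¹) ^ r = (g⁻¹)⁻¹ * x' ^ r * g⁻¹ := by
      rw [inv_inv, conj_pow]
    rw [e]
    exact tr_conj_scalar g⁻¹ (x' ^ r) z hz
  have hns' : ∀ z : F, ((g * x' * g⁻¹ : GL (Fin 3) F) : Matrix (Fin 3) (Fin 3) F) ≠
      z • (1 : Matrix (Fin 3) (Fin 3) F) := by
    intro z hz
    apply hns z
    have := tr_conj_scalar g (g * x' * g⁻¹) z hz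
    have e : g⁻¹ * (g * x' * g⁻¹) * g = x' := by group
    rwa [e] at this
  obtain ⟨k, hk, hkn⟩ := h (g * x' * g⁻¹) hx hsc' hns'
  refine ⟨g⁻¹ * k * g, tr_gp_conj q g k hg hk, ?_⟩
  have := tr_norm R R' g hRR' _ hkn
  have e : g⁻¹ * (k⁻¹ * (g * x' * g⁻¹) * k) * g = (g⁻¹ * k * g)⁻¹ * x' * (g⁻¹ * k * g) := by group
  rwa [e] at this

end

theorem pkgTransport : PkgTransport.{u} := by
  intro F _ _ q R R' g r hg hRR'
  have hRR'' : ∀ y, y ∈ R' ↔ (g⁻¹)⁻¹ * y * g⁻¹ ∈ R := by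
    intro y
    rw [hRR' ((g⁻¹)⁻¹ * y * g⁻¹)]
    have e : g⁻¹ * ((g⁻¹)⁻¹ * y * g⁻¹) * g = y := by group
    rw [e]
  refine ⟨?_, ?_, ?_⟩
  · apply Nat.card_congr
    refine
      { toFun := fun y' => ⟨(g⁻¹)⁻¹ * (y' : GL (Fin 3) F) * g⁻¹, (hRR'' _).mp y'.2⟩
        invFun := fun y => ⟨g⁻¹ * (y : GL (Fin 3) F) * g, (hRR' _).mp y.2⟩
        left_inv := ?_
        right_inv := ?_ }
    · intro y'
      apply Subtype.ext
      change g⁻¹ * ((g⁻¹)⁻¹ * (y' : GL (Fin 3) F) * g⁻¹) * g = y'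
      group
    · intro y
      apply Subtype.ext
      change (g⁻¹)⁻¹ * (g⁻¹ * (y : GL (Fin 3) F) * g) * g⁻¹ = y
      group
  · exact tr_dir q R R' g r hg hRR'
  · exact tr_dir q R' R g⁻¹ r (Subgroup.inv_mem _ hg) hRR''

end Cfsg.Agent.Lib.Helper63.U27
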